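import Cfsg.Agent.KGV.Eq16
import Cfsg.Agent.KGV.A.Kondo
import Cfsg.Agent.KGV.Tr2
import Cfsg.Agent.KGV.A.MidMat

/-! The good class function, with the clause for its complex conjugate. -/

set_option autoImplicit false

namespace CL.KGV.E2

universe u

theorem ex2 (p : ℕ) [Fact p.Prime] : CL.KGV.Eq16.Ex2.{u} p :=
  CL.KGV.Eq16.ex2 (fun _ _ _ _ g m hm hg θ N hN hθ h1 ψ hψ => CL.KGA.kondo g m hm hg θ N hN hθ h1 ψ hψ)
    (CL.KGV.Tr.th (CL.KGV.Mid.mat p))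

end CL.KGV.E2
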