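import Cfsg.Agent.KGV.Glue

/-! The equality case of Knörr's criterion. -/

set_option autoImplicit false
open Cfsg Subgroup
open scoped ComplexConjugate

namespace CL.KGV.E48
open CL.Char CL.Blk CL.VCh CL.RVec

universe u

theorem family (n : ℕ) [NeZero n] : ∃ σ : (ZMod n)ˣ → ℂ ≃+* ℂ, ∀ a : ℂ, IsIntegral ℤ a →
    a ∈ Fix n → a ≠ 0 → (Fintype.card (ZMod n)ˣ : ℝ) ≤ ∑ u, ‖σ u a‖ ^ 2 ∧
      (∑ u, ‖σ u a‖ ^ 2 ≤ (Fintype.card (ZMod n)ˣ : ℝ) → ‖a‖ ^ 2 = 1) := by
  choose σ hσ using fun u : (ZMod n)ˣ =>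
    exists_ringEquiv_pow (NeZero.ne n) (ZMod.val_coe_unit_coprime u)
  refine ⟨σ, fun a ha hfix h0 => ?_⟩
  have hne : ∀ u, σ u a ≠ 0 := fun u => (map_ne_zero _).2 h0
  obtain ⟨m, hm⟩ : ∃ m : ℤ, ∏ u, σ u a = m := by
    refine exists_int_of_fixed (IsIntegral.prod _ fun u _ =>
      isIntegral_map_ringHom (σ u).toRingHom ha) fun τ => ?_
    obtain ⟨k, hk, hτ⟩ := exists_coprime_apply_eq_pow (NeZero.ne n) τ.toRingHom
    rw [map_prod]
    refine Fintype.prod_equiv (Equiv.mulRight (ZMod.unitOfCoprime k hk)) _ _ fun u => ?_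
    refine hfix (τ.toRingHom.comp (σ u).toRingHom) (σ _).toRingHom fun z hz => ?_
    have h1 : (z ^ (u : ZMod n).val) ^ n = 1 := by rw [← pow_mul, mul_comm, pow_mul, hz, one_pow]
    show τ.toRingHom (σ u z) = σ _ z
    rw [hσ u z hz, hτ _ h1, hσ _ z hz, ← pow_mul]
    refine pow_eq_pow_of_modEq ?_ hz
    rw [← ZMod.natCast_eq_natCast_iff]
    simp
  have hm0 : m ≠ 0 := by
    rintro rfl
    exact Finset.prod_ne_zero_iff.mpr (fun u _ => hne u) (by simpa using hm)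
  have hpos : ∀ u, 0 < ‖σ u a‖ ^ 2 := fun u => pow_pos (norm_pos_iff.2 (hne u)) 2
  have hprod : 1 ≤ ∏ u, ‖σ u a‖ ^ 2 := by
    rw [Finset.prod_pow, ← norm_prod, hm, Complex.norm_intCast]
    have : (1 : ℝ) ≤ |(m : ℝ)| := by exact_mod_cast Int.one_le_abs hm0
    nlinarith
  refine ⟨CL.Blk.card_le_sum_of_one_le_prod _ (fun u _ => hpos u) hprod, fun hle => ?_⟩
  have h1 : σ 1 a = a := hfix (σ 1).toRingHom (RingHom.id ℂ) fun z hz => by
    show σ 1 z = z
    rw [hσ 1 z hz]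
    conv_rhs => rw [← pow_one z]
    refine pow_eq_pow_of_modEq ?_ hz
    rw [← ZMod.natCast_eq_natCast_iff]
    simp
  by_contra hne1
  have h2 : ∑ u, Real.log (‖σ u a‖ ^ 2) < ∑ u, (‖σ u a‖ ^ 2 - 1) :=
    Finset.sum_lt_sum (fun u _ => Real.log_le_sub_one_of_pos (hpos u))
      ⟨1, Finset.mem_univ _, Real.log_lt_sub_one_of_pos (hpos 1) (by rwa [h1])⟩
  rw [← Real.log_prod (fun u _ => (hpos u).ne'), Finset.sum_sub_distrib] at h2
  have h3 := Real.log_nonneg hprod
  simp only [Finset.sum_const, Finset.card_univ, nsmul_eq_mul, mul_one] at h2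
  linarith

variable {X : Type u} [Group X] [Finite X] {p : ℕ} {V G : Subgroup X}

/-- Knörr's criterion, the case of equality. -/
theorem knorr_eq [V.Normal] {M : Ideal AlgInt} (hM : IsPModular p M) (hVp : IsPGroup p V)
    (hidx : ¬ p ∣ V.index) (hab : ∀ a ∈ V, ∀ b ∈ V, a * b = b * a) (hGV : IsComplement' V G)
    {v : X} (hv : v ∈ V) {ψ : ↥(G ⊓ centralizer {v}) → ℂ} (hψ : ψ ∈ VC _) {n : ℕ} (hn : n ≠ 0)
    (hnX : Nat.card X ∣ n) (hfix : ∀ h, ψ h ∈ Fix n)
    (hle : ∀ (σ : ℂ →+* ℂ) h, ‖σ (ψ h)‖ ^ 2 * Nat.card ↥(V ⊓ centralizer {(h : X)}) ≤ Nat.card V)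
    (h1' : ψ 1 = 1) (h0 : ∀ h, h ≠ 1 → red M (ψ h) = 0)
    (h0c : ∀ h, h ≠ 1 → red M (conj (ψ h)) = 0) (hk : Nat.card (ConjClasses X) = Nat.card V)
    (φ₀ : IrrCharacter ↥(G ⊓ centralizer {v})) :
    red M (φ₀.1 1) ^ 2 = (Nat.card ↥(G ⊓ centralizer {v}) : F M) ^ 2 := by
  classical
  have hp : p.Prime := hM.1
  have h1 : red M (ψ 1) ≠ 0 := by simp [h1', red_one]
  have := Fact.mk hp
  let H := G ⊓ centralizer {v}
  have := Fintype.ofFinite H
  have := NeZero.mk hn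
  have hG : ¬ p ∣ Nat.card G := by rwa [← hGV.symm.index_eq_card]
  have hH : ¬ p ∣ Nat.card H := fun h => hG (h.trans (card_dvd_of_le inf_le_left))
  have hcop : (Nat.card V).Coprime (Nat.card G) := by
    obtain ⟨k, hk⟩ := hVp.exists_card_eq
    rw [hk]; exact ((hp.coprime_iff_not_dvd).2 hG).pow_left _
  have hXn : ∀ x : X, x ^ n = 1 := fun x =>
    orderOf_dvd_iff_pow_eq_one.1 ((orderOf_dvd_natCard x).trans hnX)
  obtain ⟨σ, hσ⟩ := family n
  let f : IrrCharacter X → H → ℂ := fun χ => ψ * fun h : H => χ.1 (v * H.subtype h)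
  have hf : ∀ χ, f χ ∈ VC H := fun χ => mul_mem hψ (shift_mem χ.2.isCharacter v H.subtype
    fun h => mem_centralizer_singleton_iff.1 h.2.2)
  have ha : ∀ (χ : IrrCharacter X) (φ : IrrCharacter H), (Fintype.card (ZMod n)ˣ : ℝ) ≤
      ∑ u, ‖σ u (classInner (f χ) φ.1)‖ ^ 2 ∧ (∑ u, ‖σ u (classInner (f χ) φ.1)‖ ^ 2 ≤
        (Fintype.card (ZMod n)ˣ : ℝ) → ‖classInner (f χ) φ.1‖ ^ 2 = 1) := fun χ φ => by
    refine hσ _ (isIntegral_inner (hf χ) φ.2.isCharacter) ?_ fun hz => ?_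
    · rw [classInner_def]
      refine mul_mem (inv_mem (natCast_mem _ _)) (sum_mem fun h _ => mul_mem (mul_mem (hfix h)
        (char_mem_fix hn χ.2.isCharacter (hXn _))) ?_)
      rw [← φ.2.apply_inv]
      exact char_mem_fix hn φ.2.isCharacter (Subtype.ext (hXn _))
    · have h2 := card_mul_classInner (f χ) φ.1
      have hV : ∀ h, ψ h ∈ Blk.V M := fun h => mem_V_of_isIntegral (isIntegral_apply hψ h)
      have hV' : ∀ h : H, χ.1 (v * h) * conj (φ.1 h) ∈ Blk.V M := fun h => mem_V_of_isIntegral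
        ((χ.2.isIntegral _).mul (Char.isIntegral_conj (φ.2.isIntegral h)))
      rw [hz, mul_zero] at h2
      have h3 := congrArg (red M) h2
      simp only [f, Pi.mul_apply, mul_assoc, coe_subtype] at h3
      rw [red_zero, red_sum _ fun h _ => mul_mem (hV h) (hV' h), Finset.sum_eq_single 1
        (fun h _ hh => by rw [red_mul (hV h) (hV' h), h0 h hh, zero_mul]) (by simp),
        red_mul (hV 1) (hV' 1), OneMemClass.coe_one, mul_one, φ.2.isCharacter.conj_one,
        red_mul (mem_V_of_isIntegral (χ.2.isIntegral _)) (mem_V_of_isIntegral (φ.2.isIntegral _))]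
        at h3
      obtain ⟨a, ha⟩ := hVp ⟨v, hv⟩
      rw [CL.Glb.red_char_eq hM χ.2.isCharacter (congrArg Subtype.val ha),
        χ.2.apply_one_eq_charDegree, φ.2.apply_one_eq_charDegree] at h3
      refine mul_ne_zero h1 (mul_ne_zero ?_ ?_) h3.symm
      · rw [Ne, red_natCast_eq_zero_iff hM]
        exact fun h => hidx (h.trans (χ.2.charDegree_dvd_index_of_abelian V hab))
      · rw [Ne, red_natCast_eq_zero_iff hM]
        exact fun h => hH (h.trans φ.2.charDegree_dvd_card)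
  have hH0 : (0 : ℝ) < Nat.card H := by exact_mod_cast Nat.card_pos
  have hb : ∀ τ : ℂ ≃+* ℂ, ∑ χ : IrrCharacter X, ∑ φ : IrrCharacter H,
      ‖τ (classInner (f χ) φ.1)‖ ^ 2 ≤ Nat.card V * Nat.card (ConjClasses H) := fun τ => by
    have h2 : ∀ χ : IrrCharacter X, ∑ φ : IrrCharacter H, ‖τ (classInner (f χ) φ.1)‖ ^ 2 =
        (Nat.card H : ℝ)⁻¹ * ∑ h : H, ‖τ (ψ h)‖ ^ 2 * ‖(galIrr X τ χ).1 (v * h)‖ ^ 2 := fun χ => by
      have h3 := sum_norm_inner_sq ((isClassFunction (hf χ)).gal τ)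
      rw [← Equiv.sum_comp (galIrr H τ)] at h3
      simp only [f, Pi.mul_apply, map_mul, norm_mul, mul_pow, coe_subtype] at h3
      simp only [galIrr_apply]
      rw [← h3]
      refine Finset.sum_congr rfl fun φ _ => ?_
      have h4 := classInner_gal (f χ) φ.2.isGen τ.toRingHom
      simp only [f, Pi.mul_apply, map_mul, coe_subtype] at h4
      rw [coe_galIrr]
      exact congrArg (fun z => ‖z‖ ^ 2) h4.symm
    simp only [h2]
    rw [← Finset.mul_sum, Finset.sum_comm, inv_mul_le_iff₀ hH0, ← mul_assoc, mul_comm (Nat.card H : ℝ),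
      mul_assoc, ← sum_card_centralizer, Finset.mul_sum]
    refine Finset.sum_le_sum fun h _ => ?_
    rw [← Finset.mul_sum, Equiv.sum_comp (galIrr X τ) (fun χ => ‖χ.1 (v * h)‖ ^ 2),
      sum_norm_sq_eq_card_centralizer]
    have h3 : (Nat.card (centralizer ({v * h} : Set X)) : ℝ) ≤
        Nat.card ↥(V ⊓ centralizer {(h : X)}) * Nat.card (centralizer ({h} : Set H)) := by
      exact_mod_cast card_centralizer_le hab hGV hcop hv h
    calc _ ≤ ‖τ (ψ h)‖ ^ 2 * (Nat.card ↥(V ⊓ centralizer {(h : X)}) *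
        Nat.card (centralizer ({h} : Set H))) := by gcongr
      _ ≤ _ := by
        rw [← mul_assoc]
        gcongr
        exact hle τ.toRingHom h
  let χ₀ : IrrCharacter X := ⟨fun _ => 1, isIrrCharacter_one⟩
  have hn1 : ‖classInner (f χ₀) φ₀.1‖ ^ 2 = 1 := by
    refine (ha χ₀ φ₀).2 (not_lt.1 fun hlt => ?_)
    have hc : ∑ _χ : IrrCharacter X, ∑ _φ : IrrCharacter H, (Fintype.card (ZMod n)ˣ : ℝ) <
        ∑ χ : IrrCharacter X, ∑ φ : IrrCharacter H, ∑ u, ‖σ u (classInner (f χ) φ.1)‖ ^ 2 :=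
      Finset.sum_lt_sum (fun χ _ => Finset.sum_le_sum fun φ _ => (ha χ φ).1)
        ⟨χ₀, Finset.mem_univ _, Finset.sum_lt_sum (fun φ _ => (ha χ₀ φ).1)
          ⟨φ₀, Finset.mem_univ _, hlt⟩⟩
    have hd := Finset.sum_le_sum fun u (_ : u ∈ Finset.univ) => hb (σ u)
    rw [Finset.sum_comm] at hd
    simp only [Finset.sum_comm (s := (Finset.univ : Finset (ZMod n)ˣ))] at hd
    have he := hc.trans_le hd
    simp only [Finset.sum_const, Finset.card_univ, nsmul_eq_mul] at he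
    rw [← Nat.card_eq_fintype_card (α := IrrCharacter X),
      ← Nat.card_eq_fintype_card (α := IrrCharacter H), card_irr, card_irr, hk] at he
    linarith
  have hV : ∀ h, ψ h ∈ Blk.V M := fun h => mem_V_of_isIntegral (isIntegral_apply hψ h)
  have hVc : ∀ h, conj (ψ h) ∈ Blk.V M := fun h =>
    mem_V_of_isIntegral (Char.isIntegral_conj (isIntegral_apply hψ h))
  have hP : ∀ h, φ₀.1 h ∈ Blk.V M := fun h => mem_V_of_isIntegral (φ₀.2.isIntegral h)
  have hPc : ∀ h, conj (φ₀.1 h) ∈ Blk.V M := fun h =>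
    mem_V_of_isIntegral (Char.isIntegral_conj (φ₀.2.isIntegral h))
  have h2 : (Nat.card H : ℂ) * classInner (f χ₀) φ₀.1 = ∑ h : H, ψ h * conj (φ₀.1 h) := by
    rw [card_mul_classInner]
    exact Finset.sum_congr rfl fun h _ => by simp [f, χ₀]
  have h3 : (Nat.card H : ℂ) * conj (classInner (f χ₀) φ₀.1) = ∑ h : H, conj (ψ h) * φ₀.1 h := by
    have := congrArg conj h2
    simpa using this
  have h4 : (∑ h : H, ψ h * conj (φ₀.1 h)) * (∑ h : H, conj (ψ h) * φ₀.1 h) = (Nat.card H : ℂ) ^ 2 := by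
    rw [← h2, ← h3, mul_mul_mul_comm, Complex.mul_conj', ← Complex.ofReal_pow, hn1]
    simp [sq]
  have h5 := congrArg (red M) h4
  rw [red_mul (sum_mem fun h _ => mul_mem (hV h) (hPc h)) (sum_mem fun h _ => mul_mem (hVc h) (hP h)),
    red_sum _ fun h _ => mul_mem (hV h) (hPc h), red_sum _ fun h _ => mul_mem (hVc h) (hP h),
    Finset.sum_eq_single 1 (fun h _ hh => by rw [red_mul (hV h) (hPc h), h0 h hh, zero_mul]) (by simp),
    Finset.sum_eq_single 1 (fun h _ hh => by rw [red_mul (hVc h) (hP h), h0c h hh, zero_mul]) (by simp),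
    h1', φ₀.2.isCharacter.conj_one, map_one, one_mul, ← Nat.cast_pow, red_natCast, ← sq] at h5
  rw [h5, Nat.cast_pow]

/-- `Ex` with the congruence for the complex conjugate as well. -/
def Ex2 (p : ℕ) [Fact p.Prime] : Prop :=
  ∀ (H U : Type u) [Group H] [Finite H] [AddCommGroup U] [Module (ZMod p) U] [Finite U]
    (M : Ideal AlgInt), IsPModular p M → ¬ p ∣ Nat.card H → ∀ ρ : Representation (ZMod p) H U,
      ∃ n : ℕ, n ≠ 0 ∧ ∃ ψ, GR M n ρ ψ ∧ ∀ h, Fx ρ h ≠ ⊤ → red M (conj (ψ h)) = 0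

theorem main [Fact p.Prime] (h : Ex2.{u} p) (V : Subgroup X) [V.Normal] (hVexp : ∀ v ∈ V, v ^ p = 1)
    (hidx : ¬ p ∣ V.index) (hself : Subgroup.centralizer (V : Set X) = V) (G : Subgroup X)
    (hGV : Subgroup.IsComplement' V G) (hk : Nat.card (ConjClasses X) = Nat.card V) (v : X)
    (hv : v ∈ V) :
    (Nat.ModEq p (Nat.card ↥(G ⊓ Subgroup.centralizer ({v} : Set X))) 1 ∨
      Nat.ModEq p (Nat.card ↥(G ⊓ Subgroup.centralizer ({v} : Set X)) + 1) 0) ∧
    Nat.ModEq p (Nat.card (ConjClasses ↥(G ⊓ Subgroup.centralizer ({v} : Set X))))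
      (Nat.card ↥(G ⊓ Subgroup.centralizer ({v} : Set X))) := by
  classical
  have hp : p.Prime := Fact.out
  obtain ⟨M, hM⟩ := CL.Glb.exists_isPModular hp
  have hVp : IsPGroup p V := fun x => ⟨1, Subtype.ext (by simpa using hVexp x x.2)⟩
  have habV : ∀ a ∈ V, ∀ b ∈ V, a * b = b * a := fun a ha b hb => (hself.ge hb) a ha
  have hG : ¬ p ∣ Nat.card G := by rwa [← hGV.symm.index_eq_card]
  let H := G ⊓ centralizer ({v} : Set X)
  let _ : CommGroup V := { (inferInstance : Group V) with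
    mul_comm := fun a b => Subtype.ext (habV a a.2 b b.2) }
  have _ : Module (ZMod p) (Additive V) := AddCommGroup.zmodModule fun w => by
    rw [← ofMul_toMul w, ← ofMul_pow]
    exact congrArg Additive.ofMul (Subtype.ext (hVexp _ w.toMul.2))
  let c : H → V →* V := fun h => MonoidHom.mk' (fun u => ⟨h * u * (h : X)⁻¹,
    (inferInstance : V.Normal).conj_mem u u.2 h⟩) fun a b => Subtype.ext (by simp)
  have c1 : ∀ u, c 1 u = u := fun u => Subtype.ext (by simp [c])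
  have c2 : ∀ a b u, c (a * b) u = c a (c b u) := fun a b u => Subtype.ext (by simp [c, mul_assoc])
  let ρ : Representation (ZMod p) H (Additive V) :=
    { toFun := fun h => (MonoidHom.toAdditive (c h)).toZModLinearMap p
      map_one' := LinearMap.ext fun _ => Additive.toMul.injective (c1 _)
      map_mul' := fun a b => LinearMap.ext fun _ => Additive.toMul.injective (c2 a b _) }
  obtain ⟨n, hn, ψ, hψ, hψc⟩ := h H (Additive V) M hM
    (fun h => hG (h.trans (card_dvd_of_le inf_le_left))) ρ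
  have hle : ∀ (σ : ℂ →+* ℂ) h, ‖σ (ψ h)‖ ^ 2 * Nat.card {u // c h u = u} ≤ Nat.card V := hψ.le
  have hne : ∀ h : H, h ≠ 1 → Fx ρ h ≠ ⊤ := fun h hh h3 => hh (Subtype.ext (by
    have h1 : ∀ u, c h u = u := fun u => (h3.ge Submodule.mem_top : Additive.ofMul u ∈ Fx ρ h)
    have h3 : (h : X) ∈ V := hself.le fun u hu =>
      (eq_mul_inv_iff_mul_eq.1 (congrArg Subtype.val (h1 ⟨u, hu⟩)).symm)
    exact mem_bot.1 (hGV.disjoint.le_bot ⟨h3, h.2.1⟩)))
  have key : ∀ φ : IrrCharacter H, red M (φ.1 1) ^ 2 = (Nat.card H : F M) ^ 2 := fun φ => by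
    refine knorr_eq hM hVp hidx habV hGV hv hψ.mem (mul_ne_zero hn Nat.card_pos.ne')
      (dvd_mul_left _ _) (fun h => fix_mono (dvd_mul_right _ _) (hψ.fix h)) (fun σ h => ?_)
      hψ.one (fun h hh => hψ.zero h (hne h hh)) (fun h hh => hψc h (hne h hh)) hk φ
    have h2 : Nat.card {u // c h u = u} = Nat.card ↥(V ⊓ centralizer ({(h : X)} : Set X)) := by
      rw [← Nat.card_congr (subgroupOfEquivOfLe (inf_le_left (b := centralizer ({(h : X)} : Set X)))).toEquiv,
        inf_subgroupOf_left]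
      exact Nat.card_congr (Equiv.subtypeEquivRight fun u => by
        rw [mem_subgroupOf, mem_centralizer_singleton_iff, Subtype.ext_iff, eq_comm]
        exact eq_mul_inv_iff_mul_eq)
    rw [← h2]
    exact hle σ h
  have := charP_F hM
  have h1 : (Nat.card H : F M) ^ 2 = 1 := by
    rw [← key ⟨fun _ => 1, isIrrCharacter_one⟩]
    simp [red_one]
  refine ⟨?_, ?_⟩
  · rcases sq_eq_one_iff.1 h1 with h2 | h2
    · exact Or.inl ((CharP.natCast_eq_natCast (F M) p).1 (by rw [h2, Nat.cast_one]))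
    · exact Or.inr ((CharP.natCast_eq_natCast (F M) p).1 (by push_cast; rw [h2]; ring))
  · refine (CharP.natCast_eq_natCast (F M) p).1 ?_
    have h2 := congrArg (red M) (sum_degree_sq (G := H))
    have hP : ∀ φ : IrrCharacter H, φ.1 1 ∈ Blk.V M := fun φ => mem_V_of_isIntegral (φ.2.isIntegral 1)
    rw [red_natCast, red_sum _ fun φ _ => pow_mem (hP φ) 2,
      Finset.sum_congr rfl fun φ _ => (red_pow (hP φ) 2).trans ((key φ).trans h1)] at h2
    rw [← h2, ← card_irr, Finset.sum_const, Finset.card_univ, nsmul_eq_mul, mul_one,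
      ← Nat.card_eq_fintype_card]

end CL.KGV.E48
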