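import Cfsg.Agent.KGV.E48
import Cfsg.Agent.KGV.A.Top2

/-! The conjugate form of the good class function from the two Gauss sum statements. -/

set_option autoImplicit false
open Cfsg

namespace CL.KGV.E48

universe u

theorem ex2 {p : ℕ} [Fact p.Prime] (hK : CL.KGA.Kondo.{u} p) (hT : CL.KGA.Th.{u} p) : Ex2.{u} p :=
  fun H U _ _ _ _ _ M hM hH ρ => by
    obtain ⟨n, hn, ψ, h⟩ := CL.KGA.exAll hK hT H U hH ρ
    exact ⟨n, hn, ψ, h M hM⟩

end CL.KGV.E48
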