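import Mathlib
import Cfsg.Agent.SOLV.Glauberman
import Cfsg.Agent.FGS.ConjCover

/-! The equality case of Nagao's inequality for a normal subgroup with abelian normal Sylow
subgroup. -/

set_option autoImplicit false

namespace CL.KGV.End61

open Subgroup

theorem cen {Y : Type*} [Group Y] [Finite Y] {p : ℕ} [hp : Fact p.Prime] (K : Subgroup Y) [K.Normal]
    (hK : ¬ p ∣ Nat.card K) (hG : ∀ h ∈ K, ∀ a : Y, ∃ n ∈ K, h * (a * n) = (a * n) * h)
    {y : Y} {k : ℕ} (hy : y ^ p ^ k = 1) : ∀ h ∈ K, h * y = y * h := by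
  by_contra hne
  have hH : (centralizer ({y} : Set Y)).subgroupOf K ≠ ⊤ := fun e => hne fun h hh =>
    mem_centralizer_singleton_iff.1 (e.ge (mem_top (⟨h, hh⟩ : K)))
  obtain ⟨x, hx⟩ := CL.exists_forall_conj_notMem hH
  have hc : (Nat.card (zpowers y)).Coprime (Nat.card K) := by
    rw [Nat.card_zpowers]
    exact ((hp.out.coprime_iff_not_dvd.2 hK).pow_left k).coprime_dvd_left
      (orderOf_dvd_of_pow_eq_one hy)
  obtain ⟨c, hc, h⟩ := @CL.coprime_fixed_point_of_solvable_left Y _ Y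
    (MulAction.compHom Y (MulAut.conj (G := Y))) (zpowers y) K _ _
    (by rw [normalizer_eq_top]; exact le_top) hc inferInstance x (fun a _ => by
      obtain ⟨n, hn, e⟩ := hG x x.2 a⁻¹
      refine ⟨n, hn, ?_⟩
      change a * x * a⁻¹ = n * x * n⁻¹
      calc a * x * a⁻¹ = a * (x * (a⁻¹ * n)) * n⁻¹ := by group
        _ = n * x * n⁻¹ := by rw [e]; group)
  have h1 : y * (c * x * c⁻¹) * y⁻¹ = c * x * c⁻¹ := h y (mem_zpowers y)
  refine hx (⟨c, hc⟩ : K)⁻¹ (mem_subgroupOf.2 (mem_centralizer_singleton_iff.2 ?_))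
  change c⁻¹⁻¹ * x * c⁻¹ * y = y * (c⁻¹⁻¹ * x * c⁻¹)
  rw [inv_inv]
  exact (mul_inv_eq_iff_eq_mul.1 h1).symm

theorem comm {X : Type*} [Group X] [Finite X] {p : ℕ} [hp : Fact p.Prime] (V K : Subgroup X)
    [V.Normal] [K.Normal] (hVK : V ≤ K) (hab : ∀ a ∈ V, ∀ b ∈ V, a * b = b * a)
    (hi : ¬ p ∣ Nat.card (K.map (QuotientGroup.mk' V)))
    (hG : ∀ x y : X, x * y * x⁻¹ * y⁻¹ ∈ K → ∃ n ∈ K, x * (y * n) = (y * n) * x)
    {x y : X} {j k : ℕ} (hx : x ^ p ^ j = 1) (hy : y ^ p ^ k = 1)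
    (hxy : x * y * x⁻¹ * y⁻¹ ∈ K) : x * y = y * x := by
  let π := QuotientGroup.mk' V
  have hs : Function.Surjective π := QuotientGroup.mk'_surjective V
  have hn : (K.map π).Normal := Normal.map inferInstance π hs
  have hG' : ∀ h ∈ K.map π, ∀ a : X ⧸ V, ∃ n ∈ K.map π, h * (a * n) = (a * n) * h := by
    rintro _ ⟨h, hh, rfl⟩ a
    obtain ⟨a, rfl⟩ := hs a
    obtain ⟨n, hn, e⟩ := hG h a (by
      have := mul_mem hh ((inferInstance : K.Normal).conj_mem _ (inv_mem hh) a)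
      simpa only [mul_assoc] using this)
    exact ⟨π n, ⟨n, hn, rfl⟩, by simpa only [map_mul] using congrArg π e⟩
  have key : ∀ {x y : X} {k : ℕ}, y ^ p ^ k = 1 → x * y * x⁻¹ * y⁻¹ ∈ K →
      ∃ v ∈ V, x * (y * v) = (y * v) * x := fun {x y k} hy hxy => by
    obtain ⟨n, hn, e⟩ := hG x y hxy
    have hy' : π y ^ p ^ k = 1 := by rw [← map_pow, hy, map_one]
    have hc : Commute (π y) (π n) := (cen (K.map π) hi hG' hy' _ ⟨n, hn, rfl⟩).symm
    obtain ⟨m, hm1, hm2⟩ := Nat.chineseRemainder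
      ((hp.out.coprime_iff_not_dvd.2 hi).pow_left k) 1 0
    have h1 : π y ^ m = π y := by
      rw [pow_eq_pow_mod m hy', hm1, ← pow_eq_pow_mod 1 hy', pow_one]
    have h2 : π n ^ m = 1 := by
      obtain ⟨c, rfl⟩ := (Nat.modEq_zero_iff_dvd).1 hm2
      have : π n ^ Nat.card (K.map π) = 1 :=
        congrArg Subtype.val (pow_card_eq_one' (G := K.map π) (x := ⟨π n, n, hn, rfl⟩))
      rw [pow_mul, this, one_pow]
    have h3 : π (y⁻¹ * (y * n) ^ m) = 1 := by
      rw [map_mul, map_pow, map_mul, hc.mul_pow, h1, h2, map_inv, mul_one, inv_mul_cancel]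
    refine ⟨y⁻¹ * (y * n) ^ m, (QuotientGroup.eq_one_iff _).1 h3, ?_⟩
    rw [mul_inv_cancel_left]
    exact (Commute.pow_right (e : Commute x (y * n)) m).eq
  obtain ⟨v, hv, e⟩ := key hy hxy
  obtain ⟨w, hw, e'⟩ := key (x := v) hx (by
    have := mul_mem (hVK hv) ((inferInstance : K.Normal).conj_mem _ (inv_mem (hVK hv)) x)
    simpa only [mul_assoc] using this)
  have h1 : Commute v x := by
    have := Commute.mul_right (e' : Commute v (x * w))
      (Commute.inv_right (hab v hv w hw : Commute v w))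
    rwa [mul_inv_cancel_right] at this
  have := Commute.mul_right (e : Commute x (y * v)) h1.symm.inv_right
  rwa [mul_inv_cancel_right] at this

end CL.KGV.End61
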