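import Cfsg.Agent.KGV.Glue
import Cfsg.Agent.KGV.A.Top2
import Cfsg.Agent.CHAR.Linear

/-! The equality case of Knörr's criterion. -/

set_option autoImplicit false
open Cfsg Subgroup
open scoped ComplexConjugate

namespace CL.KGV.Eq16
open CL.Char CL.Blk CL.VCh CL.RVec

universe u

theorem exists_family2 (n : ℕ) [NeZero n] : ∃ σ : (ZMod n)ˣ → ℂ ≃+* ℂ, ∀ a : ℂ, IsIntegral ℤ a →
    a ∈ Fix n → a ≠ 0 → (Fintype.card (ZMod n)ˣ : ℝ) ≤ ∑ u, ‖σ u a‖ ^ 2 ∧
      (∑ u, ‖σ u a‖ ^ 2 ≤ (Fintype.card (ZMod n)ˣ : ℝ) → ‖a‖ ^ 2 = 1) := by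
  choose σ hσ using fun u : (ZMod n)ˣ =>
    exists_ringEquiv_pow (NeZero.ne n) (ZMod.val_coe_unit_coprime u)
  refine ⟨σ, fun a ha hfix h0 => ?_⟩
  have hne : ∀ u, σ u a ≠ 0 := fun u => (map_ne_zero _).2 h0
  obtain ⟨m, hm⟩ : ∃ m : ℤ, ∏ u, σ u a = m := by
    refine exists_int_of_fixed (IsIntegral.prod _ fun u _ =>
      isIntegral_map_ringHom (σ u).toRingHom ha) fun τ => ?_
    obtain ⟨k, hk, hτ⟩ := exists_coprime_apply_eq_pow (NeZero.ne n) τ.toRingHom
    rw [map_prod]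
    refine Fintype.prod_equiv (Equiv.mulRight (ZMod.unitOfCoprime k hk)) _ _ fun u => ?_
    refine hfix (τ.toRingHom.comp (σ u).toRingHom) (σ _).toRingHom fun z hz => ?_
    have h1 : (z ^ (u : ZMod n).val) ^ n = 1 := by rw [← pow_mul, mul_comm, pow_mul, hz, one_pow]
    show τ.toRingHom (σ u z) = σ _ z
    rw [hσ u z hz, hτ _ h1, hσ _ z hz, ← pow_mul]
    refine pow_eq_pow_of_modEq ?_ hz
    rw [← ZMod.natCast_eq_natCast_iff]
    simp
  have hm0 : m ≠ 0 := by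
    rintro rfl
    exact Finset.prod_ne_zero_iff.mpr (fun u _ => hne u) (by simpa using hm)
  have hprod : 1 ≤ ∏ u, ‖σ u a‖ ^ 2 := by
    rw [Finset.prod_pow, ← norm_prod, hm, Complex.norm_intCast]
    have : (1 : ℝ) ≤ |(m : ℝ)| := by exact_mod_cast Int.one_le_abs hm0
    nlinarith
  refine ⟨CL.Blk.card_le_sum_of_one_le_prod _ (fun u _ => pow_pos (norm_pos_iff.2 (hne u)) 2) hprod,
    fun hs => ?_⟩
  have h1 := CL.Blk.eq_one_of_one_le_prod _ (fun u _ => pow_pos (norm_pos_iff.2 (hne u)) 2) hprod hs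
    (Finset.mem_univ 1)
  have h2 : σ 1 a = a := by
    refine hfix (σ 1).toRingHom (RingHom.id ℂ) fun z hz => ?_
    show σ 1 z = z
    rw [hσ 1 z hz]
    conv_rhs => rw [← pow_one z]
    refine pow_eq_pow_of_modEq ?_ hz
    rw [← ZMod.natCast_eq_natCast_iff]
    simp
  rwa [h2] at h1

section
variable {X : Type*} [Group X] [Finite X] {p : ℕ} {V G : Subgroup X}

theorem knorr_eq [V.Normal] {M : Ideal AlgInt} (hM : IsPModular p M) (hVp : IsPGroup p V)
    (hidx : ¬ p ∣ V.index) (hab : ∀ a ∈ V, ∀ b ∈ V, a * b = b * a) (hGV : IsComplement' V G)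
    {v : X} (hv : v ∈ V) {ψ : ↥(G ⊓ centralizer {v}) → ℂ} (hψ : ψ ∈ VC _) {n : ℕ} (hn : n ≠ 0)
    (hnX : Nat.card X ∣ n) (hfix : ∀ h, ψ h ∈ Fix n)
    (hle : ∀ (σ : ℂ →+* ℂ) h, ‖σ (ψ h)‖ ^ 2 * Nat.card ↥(V ⊓ centralizer {(h : X)}) ≤ Nat.card V)
    (h1 : red M (ψ 1) ≠ 0) (h0 : ∀ h, h ≠ 1 → red M (ψ h) = 0)
    [Fintype ↥(G ⊓ centralizer {v})] (hk : Nat.card (ConjClasses X) = Nat.card V)
    (φ0 : IrrCharacter ↥(G ⊓ centralizer {v})) : ‖classInner ψ φ0.1‖ ^ 2 = 1 := by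
  classical
  have hp : p.Prime := hM.1
  have := Fact.mk hp
  let H := G ⊓ centralizer {v}
  have := NeZero.mk hn
  have hG : ¬ p ∣ Nat.card G := by rwa [← hGV.symm.index_eq_card]
  have hH : ¬ p ∣ Nat.card H := fun h => hG (h.trans (card_dvd_of_le inf_le_left))
  have hcop : (Nat.card V).Coprime (Nat.card G) := by
    obtain ⟨k, hk⟩ := hVp.exists_card_eq
    rw [hk]; exact ((hp.coprime_iff_not_dvd).2 hG).pow_left _
  have hXn : ∀ x : X, x ^ n = 1 := fun x =>
    orderOf_dvd_iff_pow_eq_one.1 ((orderOf_dvd_natCard x).trans hnX)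
  obtain ⟨σ, hσ⟩ := exists_family2 n
  let f : IrrCharacter X → H → ℂ := fun χ => ψ * fun h : H => χ.1 (v * H.subtype h)
  have hf : ∀ χ, f χ ∈ VC H := fun χ => mul_mem hψ (shift_mem χ.2.isCharacter v H.subtype
    fun h => mem_centralizer_singleton_iff.1 h.2.2)
  have ha : ∀ (χ : IrrCharacter X) (φ : IrrCharacter H), (Fintype.card (ZMod n)ˣ : ℝ) ≤
      ∑ u, ‖σ u (classInner (f χ) φ.1)‖ ^ 2 ∧ (∑ u, ‖σ u (classInner (f χ) φ.1)‖ ^ 2 ≤
        (Fintype.card (ZMod n)ˣ : ℝ) → ‖classInner (f χ) φ.1‖ ^ 2 = 1) := fun χ φ => by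
    refine hσ _ (isIntegral_inner (hf χ) φ.2.isCharacter) ?_ fun hz => ?_
    · rw [classInner_def]
      refine mul_mem (inv_mem (natCast_mem _ _)) (sum_mem fun h _ => mul_mem (mul_mem (hfix h)
        (char_mem_fix hn χ.2.isCharacter (hXn _))) ?_)
      rw [← φ.2.apply_inv]
      exact char_mem_fix hn φ.2.isCharacter (Subtype.ext (hXn _))
    · have h2 := card_mul_classInner (f χ) φ.1
      have hV : ∀ h, ψ h ∈ Blk.V M := fun h => mem_V_of_isIntegral (isIntegral_apply hψ h)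
      have hV' : ∀ h : H, χ.1 (v * h) * conj (φ.1 h) ∈ Blk.V M := fun h => mem_V_of_isIntegral
        ((χ.2.isIntegral _).mul (Char.isIntegral_conj (φ.2.isIntegral h)))
      rw [hz, mul_zero] at h2
      have h3 := congrArg (red M) h2
      simp only [f, Pi.mul_apply, mul_assoc, coe_subtype] at h3
      rw [red_zero, red_sum _ fun h _ => mul_mem (hV h) (hV' h), Finset.sum_eq_single 1
        (fun h _ hh => by rw [red_mul (hV h) (hV' h), h0 h hh, zero_mul]) (by simp),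
        red_mul (hV 1) (hV' 1), OneMemClass.coe_one, mul_one, φ.2.isCharacter.conj_one,
        red_mul (mem_V_of_isIntegral (χ.2.isIntegral _)) (mem_V_of_isIntegral (φ.2.isIntegral _))]
        at h3
      obtain ⟨a, ha⟩ := hVp ⟨v, hv⟩
      rw [CL.Glb.red_char_eq hM χ.2.isCharacter (congrArg Subtype.val ha),
        χ.2.apply_one_eq_charDegree, φ.2.apply_one_eq_charDegree] at h3
      refine mul_ne_zero h1 (mul_ne_zero ?_ ?_) h3.symm
      · rw [Ne, red_natCast_eq_zero_iff hM]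
        exact fun h => hidx (h.trans (χ.2.charDegree_dvd_index_of_abelian V hab))
      · rw [Ne, red_natCast_eq_zero_iff hM]
        exact fun h => hH (h.trans φ.2.charDegree_dvd_card)
  have hH0 : (0 : ℝ) < Nat.card H := by exact_mod_cast Nat.card_pos
  have hb : ∀ τ : ℂ ≃+* ℂ, ∑ χ : IrrCharacter X, ∑ φ : IrrCharacter H,
      ‖τ (classInner (f χ) φ.1)‖ ^ 2 ≤ Nat.card V * Nat.card (ConjClasses H) := fun τ => by
    have h2 : ∀ χ : IrrCharacter X, ∑ φ : IrrCharacter H, ‖τ (classInner (f χ) φ.1)‖ ^ 2 =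
        (Nat.card H : ℝ)⁻¹ * ∑ h : H, ‖τ (ψ h)‖ ^ 2 * ‖(galIrr X τ χ).1 (v * h)‖ ^ 2 := fun χ => by
      have h3 := sum_norm_inner_sq ((isClassFunction (hf χ)).gal τ)
      rw [← Equiv.sum_comp (galIrr H τ)] at h3
      simp only [f, Pi.mul_apply, map_mul, norm_mul, mul_pow, coe_subtype] at h3
      simp only [galIrr_apply]
      rw [← h3]
      refine Finset.sum_congr rfl fun φ _ => ?_
      have h4 := classInner_gal (f χ) φ.2.isGen τ.toRingHom
      simp only [f, Pi.mul_apply, map_mul, coe_subtype] at h4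
      rw [coe_galIrr]
      exact congrArg (fun z => ‖z‖ ^ 2) h4.symm
    simp only [h2]
    rw [← Finset.mul_sum, Finset.sum_comm, inv_mul_le_iff₀ hH0, ← mul_assoc, mul_comm (Nat.card H : ℝ),
      mul_assoc, ← sum_card_centralizer, Finset.mul_sum]
    refine Finset.sum_le_sum fun h _ => ?_
    rw [← Finset.mul_sum, Equiv.sum_comp (galIrr X τ) (fun χ => ‖χ.1 (v * h)‖ ^ 2),
      sum_norm_sq_eq_card_centralizer]
    have h3 : (Nat.card (centralizer ({v * h} : Set X)) : ℝ) ≤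
        Nat.card ↥(V ⊓ centralizer {(h : X)}) * Nat.card (centralizer ({h} : Set H)) := by
      exact_mod_cast card_centralizer_le hab hGV hcop hv h
    calc _ ≤ ‖τ (ψ h)‖ ^ 2 * (Nat.card ↥(V ⊓ centralizer {(h : X)}) *
        Nat.card (centralizer ({h} : Set H))) := by gcongr
      _ ≤ _ := by
        rw [← mul_assoc]
        gcongr
        exact hle τ.toRingHom h
  have hf1 : f (irrOne X) = ψ := by
    funext h; simp [f, irrOne]
  rw [← hf1]
  refine (ha _ _).2 ?_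
  by_contra hlt
  push Not at hlt
  have hc : ∑ χ : IrrCharacter X, ∑ φ : IrrCharacter H, (Fintype.card (ZMod n)ˣ : ℝ) <
      ∑ χ : IrrCharacter X, ∑ φ : IrrCharacter H, ∑ u, ‖σ u (classInner (f χ) φ.1)‖ ^ 2 :=
    Finset.sum_lt_sum (fun χ _ => Finset.sum_le_sum fun φ _ => (ha χ φ).1)
      ⟨irrOne X, Finset.mem_univ _, Finset.sum_lt_sum (fun φ _ => (ha _ φ).1)
        ⟨φ0, Finset.mem_univ _, hlt⟩⟩
  have hd := Finset.sum_le_sum fun u (_ : u ∈ Finset.univ) => hb (σ u)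
  rw [Finset.sum_comm] at hd
  simp only [Finset.sum_comm (s := (Finset.univ : Finset (ZMod n)ˣ))] at hd
  have he := hc.trans_le hd
  simp only [Finset.sum_const, Finset.card_univ, nsmul_eq_mul] at he
  rw [← Nat.card_eq_fintype_card (α := IrrCharacter X),
    ← Nat.card_eq_fintype_card (α := IrrCharacter H), card_irr, card_irr, hk] at he
  linarith

/-- a class function of modulus one coefficient: degrees modulo `p`. -/
theorem sq_congr {H : Type*} [Group H] [Fintype H] {M : Ideal AlgInt} (hM : IsPModular p M)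
    {ψ : H → ℂ} (hψ : ψ ∈ VC H) (h1 : ψ 1 = 1) (h0 : ∀ h, h ≠ 1 → red M (ψ h) = 0)
    (h0' : ∀ h, h ≠ 1 → red M (conj (ψ h)) = 0) (φ : IrrCharacter H)
    (hn : ‖classInner ψ φ.1‖ ^ 2 = 1) : Nat.card H ^ 2 ≡ charDegree φ.1 ^ 2 [MOD p] := by
  classical
  have hV : ∀ h, ψ h ∈ Blk.V M := fun h => mem_V_of_isIntegral (isIntegral_apply hψ h)
  have hV2 : ∀ h, conj (ψ h) ∈ Blk.V M := fun h =>
    mem_V_of_isIntegral (Char.isIntegral_conj (isIntegral_apply hψ h))
  have hW : ∀ h, φ.1 h ∈ Blk.V M := fun h => mem_V_of_isIntegral (φ.2.isIntegral h)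
  have hW2 : ∀ h, conj (φ.1 h) ∈ Blk.V M := fun h =>
    mem_V_of_isIntegral (Char.isIntegral_conj (φ.2.isIntegral h))
  have h2 := card_mul_classInner ψ φ.1
  have h3 := congrArg conj h2
  simp only [map_mul, map_sum, map_natCast, Complex.conj_conj] at h3
  have h4 : ((Nat.card H ^ 2 : ℕ) : ℂ) =
      (∑ g, ψ g * conj (φ.1 g)) * ∑ g, conj (ψ g) * φ.1 g := by
    rw [← h2, ← h3]
    have : classInner ψ φ.1 * conj (classInner ψ φ.1) = 1 := by
      rw [Complex.mul_conj']; exact_mod_cast hn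
    push_cast
    linear_combination (-(Nat.card H : ℂ) ^ 2) * this
  have h5 := congrArg (red M) h4
  rw [red_mul (sum_mem fun h _ => mul_mem (hV h) (hW2 h)) (sum_mem fun h _ => mul_mem (hV2 h) (hW h)),
    red_sum _ fun h _ => mul_mem (hV h) (hW2 h), red_sum _ fun h _ => mul_mem (hV2 h) (hW h),
    Finset.sum_eq_single 1 (fun h _ hh => by rw [red_mul (hV h) (hW2 h), h0 h hh, zero_mul]) (by simp),
    Finset.sum_eq_single 1 (fun h _ hh => by rw [red_mul (hV2 h) (hW h), h0' h hh, zero_mul]) (by simp),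
    h1, map_one, one_mul, one_mul, φ.2.isCharacter.conj_one, φ.2.apply_one_eq_charDegree,
    red_natCast, red_natCast, ← sq, ← Nat.cast_pow] at h5
  rcases le_total (Nat.card H ^ 2) (charDegree φ.1 ^ 2) with h | h
  · rw [Nat.modEq_iff_dvd' h, ← natCast_F_eq_zero_iff hM, Nat.cast_sub h, h5, sub_self]
  · refine Nat.ModEq.symm ?_
    rw [Nat.modEq_iff_dvd' h, ← natCast_F_eq_zero_iff hM, Nat.cast_sub h, h5, sub_self]

theorem concl {H : Type*} [Group H] [Finite H] [hp : Fact p.Prime]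
    (h : ∀ φ : IrrCharacter H, Nat.card H ^ 2 ≡ charDegree φ.1 ^ 2 [MOD p]) :
    (Nat.card H ≡ 1 [MOD p] ∨ Nat.card H + 1 ≡ 0 [MOD p]) ∧
      Nat.card (ConjClasses H) ≡ Nat.card H [MOD p] := by
  classical
  have h1 : charDegree (irrOne H).1 = 1 := by
    have := (irrOne H).2.apply_one_eq_charDegree
    rw [irrOne_apply] at this
    exact_mod_cast this.symm
  have h2 := h (irrOne H)
  rw [h1, ← ZMod.natCast_eq_natCast_iff] at h2
  push_cast at h2
  constructor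
  · rw [← ZMod.natCast_eq_natCast_iff, ← ZMod.natCast_eq_natCast_iff]
    push_cast
    rcases (mul_self_eq_one_iff.1 ((sq _).symm.trans h2)) with h | h
    · exact Or.inl h
    · exact Or.inr (by rw [h]; simp)
  · rw [← ZMod.natCast_eq_natCast_iff, ← card_irr, Nat.card_eq_fintype_card (α := IrrCharacter H)]
    have h3 : ∑ φ : IrrCharacter H, charDegree φ.1 ^ 2 = Nat.card H := by
      have := sum_degree_sq (G := H)
      have h5 : ∀ φ : IrrCharacter H, φ.1 1 = charDegree φ.1 := fun φ => φ.2.apply_one_eq_charDegree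
      simp only [h5] at this
      exact_mod_cast this
    have h4 : ∀ φ : IrrCharacter H, ((charDegree φ.1 ^ 2 : ℕ) : ZMod p) = 1 := fun φ => by
      rw [← (ZMod.natCast_eq_natCast_iff _ _ _).2 (h φ)]
      push_cast
      rw [h2]
    rw [← h3, Nat.cast_sum]
    simp only [h4]
    simp

end

/-- `Ex` with the extra clause for the complex conjugate. -/
def Ex2 (p : ℕ) [Fact p.Prime] : Prop :=
  ∀ (H U : Type u) [Group H] [Finite H] [AddCommGroup U] [Module (ZMod p) U] [Finite U]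
    (M : Ideal AlgInt), IsPModular p M → ¬ p ∣ Nat.card H → ∀ ρ : Representation (ZMod p) H U,
      ∃ n : ℕ, n ≠ 0 ∧ ∃ ψ, GR M n ρ ψ ∧ ∀ h, Fx ρ h ≠ ⊤ → red M (conj (ψ h)) = 0

/-- The multiplicative form. -/
theorem exists_good2 {p : ℕ} [Fact p.Prime] (h : Ex2.{u} p) {H W : Type u} [Group H] [Finite H]
    [CommGroup W] [Finite W] [Module (ZMod p) (Additive W)] {M : Ideal AlgInt} (hM : IsPModular p M)
    (hH : ¬ p ∣ Nat.card H) (c : H → W →* W) (h1 : ∀ u, c 1 u = u)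
    (h2 : ∀ a b u, c (a * b) u = c a (c b u)) :
    ∃ n : ℕ, n ≠ 0 ∧ ∃ ψ ∈ VC H, (∀ h, ψ h ∈ Fix n) ∧
      (∀ (σ : ℂ →+* ℂ) h, ‖σ (ψ h)‖ ^ 2 * Nat.card {u // c h u = u} ≤ Nat.card W) ∧ ψ 1 = 1 ∧
      ∀ h, ¬ (∀ u, c h u = u) → red M (ψ h) = 0 ∧ red M (conj (ψ h)) = 0 := by
  let ρ : Representation (ZMod p) H (Additive W) :=
    { toFun := fun h => (MonoidHom.toAdditive (c h)).toZModLinearMap p
      map_one' := LinearMap.ext fun _ => Additive.toMul.injective (h1 _)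
      map_mul' := fun a b => LinearMap.ext fun _ => Additive.toMul.injective (h2 a b _) }
  obtain ⟨n, hn, ψ, hψ, hc⟩ := h H (Additive W) M hM hH ρ
  refine ⟨n, hn, ψ, hψ.mem, hψ.fix, hψ.le, hψ.one, fun h hh => ?_⟩
  have h4 : Fx ρ h ≠ ⊤ := fun h3 => hh fun u =>
    (h3.ge Submodule.mem_top : Additive.ofMul u ∈ Fx ρ h)
  exact ⟨hψ.zero h h4, hc h h4⟩

theorem main {X : Type u} [Group X] [Finite X] {p : ℕ} [Fact p.Prime] (h : Ex2.{u} p)
    (V : Subgroup X) [V.Normal] (hVexp : ∀ v ∈ V, v ^ p = 1) (hidx : ¬ p ∣ V.index)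
    (hself : Subgroup.centralizer (V : Set X) = V) (G : Subgroup X) (hGV : IsComplement' V G)
    (hk : Nat.card (ConjClasses X) = Nat.card V) (v : X) (hv : v ∈ V) :
    (Nat.ModEq p (Nat.card ↥(G ⊓ centralizer ({v} : Set X))) 1 ∨
      Nat.ModEq p (Nat.card ↥(G ⊓ centralizer ({v} : Set X)) + 1) 0) ∧
    Nat.ModEq p (Nat.card (ConjClasses ↥(G ⊓ centralizer ({v} : Set X))))
      (Nat.card ↥(G ⊓ centralizer ({v} : Set X))) := by
  have hp : p.Prime := Fact.out
  obtain ⟨M, hM⟩ := CL.Glb.exists_isPModular hp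
  have hVp : IsPGroup p V := fun x => ⟨1, Subtype.ext (by simpa using hVexp x x.2)⟩
  have habV : ∀ a ∈ V, ∀ b ∈ V, a * b = b * a := fun a ha b hb => (hself.ge hb) a ha
  have hG : ¬ p ∣ Nat.card G := by rwa [← hGV.symm.index_eq_card]
  let H := G ⊓ centralizer ({v} : Set X)
  have := Fintype.ofFinite H
  let _ : CommGroup V := { (inferInstance : Group V) with
    mul_comm := fun a b => Subtype.ext (habV a a.2 b b.2) }
  have _ : Module (ZMod p) (Additive V) := AddCommGroup.zmodModule fun w => by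
    rw [← ofMul_toMul w, ← ofMul_pow]
    exact congrArg Additive.ofMul (Subtype.ext (hVexp _ w.toMul.2))
  let c : H → V →* V := fun h => MonoidHom.mk' (fun u => ⟨h * u * (h : X)⁻¹,
    (inferInstance : V.Normal).conj_mem u u.2 h⟩) fun a b => Subtype.ext (by simp)
  obtain ⟨n, hn, ψ, hm, hf, hle, h1, h0⟩ := exists_good2 h hM
    (fun h => hG (h.trans (card_dvd_of_le inf_le_left)))
    c (fun u => Subtype.ext (by simp [c])) (fun a b u => Subtype.ext (by simp [c, mul_assoc]))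
  have hz : ∀ h : H, h ≠ 1 → red M (ψ h) = 0 ∧ red M (conj (ψ h)) = 0 := fun h hh =>
    h0 h fun h1 => hh (Subtype.ext (by
      have h3 : (h : X) ∈ V := hself.le fun u hu =>
        (eq_mul_inv_iff_mul_eq.1 (congrArg Subtype.val (h1 ⟨u, hu⟩)).symm)
      exact mem_bot.1 (hGV.disjoint.le_bot ⟨h3, h.2.1⟩)))
  refine concl fun φ => sq_congr hM hm h1 (fun h hh => (hz h hh).1) (fun h hh => (hz h hh).2) φ ?_
  refine knorr_eq hM hVp hidx habV hGV hv hm (mul_ne_zero hn Nat.card_pos.ne')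
    (dvd_mul_left _ _) (fun h => fix_mono (dvd_mul_right _ _) (hf h)) (fun σ h => ?_)
    (by simp [h1, CL.Blk.red_one]) (fun h hh => (hz h hh).1) hk φ
  have h2 : Nat.card {u // c h u = u} = Nat.card ↥(V ⊓ centralizer ({(h : X)} : Set X)) := by
    rw [← Nat.card_congr (subgroupOfEquivOfLe (inf_le_left (b := centralizer ({(h : X)} : Set X)))).toEquiv,
      inf_subgroupOf_left]
    exact Nat.card_congr (Equiv.subtypeEquivRight fun u => by
      rw [mem_subgroupOf, mem_centralizer_singleton_iff, Subtype.ext_iff, eq_comm]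
      exact eq_mul_inv_iff_mul_eq)
  rw [← h2]
  exact hle σ h

theorem ex2 {p : ℕ} [Fact p.Prime] (hK : CL.KGA.Kondo.{u} p) (hT : CL.KGA.Th.{u} p) : Ex2.{u} p :=
  fun H U _ _ _ _ _ M hM hH ρ => by
    obtain ⟨n, hn, ψ, h⟩ := CL.KGA.exAll hK hT H U hH ρ
    exact ⟨n, hn, ψ, h M hM⟩

end CL.KGV.Eq16
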