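import Cfsg.Agent.FGS.ClassCount

/-! The equality case of Gallagher's inequality `k(X) ≤ k(N) k(X/N)`. -/

set_option autoImplicit false

namespace CL.KGV.Gal

theorem eq {X : Type*} [Group X] [Finite X] (N : Subgroup X) [N.Normal]
    (h : Nat.card (ConjClasses N) * Nat.card (ConjClasses (X ⧸ N)) ≤ Nat.card (ConjClasses X))
    (x y : X) (hxy : x * y * x⁻¹ * y⁻¹ ∈ N) : ∃ n ∈ N, x * (y * n) = (y * n) * x := by
  classical
  by_contra hne
  have := Fintype.ofFinite X
  have hX := CL.sum_card_centralizer_eq (G := X)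
  have hN := CL.sum_card_centralizer_eq (G := N)
  have hQ := CL.sum_card_centralizer_eq (G := X ⧸ N)
  have h0 : ∀ x : X, ∃ a b : ℕ, Nat.card (Subgroup.centralizer ({x} : Set X)) = a * b ∧ 0 < b ∧
      b ≤ {n : N | (n : X) * x = x * n}.ncard ∧
      a ≤ Nat.card (Subgroup.centralizer ({(x : X ⧸ N)} : Set (X ⧸ N))) ∧
      (a = Nat.card (Subgroup.centralizer ({(x : X ⧸ N)} : Set (X ⧸ N))) →
        ∀ y : X, x * y * x⁻¹ * y⁻¹ ∈ N → ∃ n ∈ N, x * (y * n) = (y * n) * x) := by
    intro x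
    set C := Subgroup.centralizer ({x} : Set X)
    let f : C →* X ⧸ N := (QuotientGroup.mk' N).comp C.subtype
    have e := Subgroup.card_mul_index f.ker
    rw [Subgroup.index_ker] at e
    have e0 : f.range ≤ Subgroup.centralizer ({(x : X ⧸ N)} : Set (X ⧸ N)) := by
      rintro _ ⟨⟨c, hc⟩, rfl⟩
      rw [Subgroup.mem_centralizer_singleton_iff] at hc ⊢
      show ((c : X ⧸ N)) * x = x * c
      rw [← QuotientGroup.mk_mul, hc, QuotientGroup.mk_mul]
    have e2 : Nat.card f.ker ≤ {n : N | (n : X) * x = x * n}.ncard := by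
      rw [← Nat.card_coe_set_eq]
      let g : f.ker → {n : N | (n : X) * x = x * n} := fun c =>
        ⟨⟨c.1.1, (QuotientGroup.eq_one_iff _).mp c.2⟩, Subgroup.mem_centralizer_singleton_iff.mp c.1.2⟩
      apply Nat.card_le_card_of_injective g
      intro a b hab
      apply Subtype.ext; apply Subtype.ext
      exact congrArg (fun z => (z.1.1 : X)) hab
    refine ⟨_, _, by rw [← e, mul_comm], Nat.card_pos, e2, Subgroup.card_le_of_le e0,
      fun he y hy => ?_⟩
    have e3 := Subgroup.eq_of_le_of_card_ge e0 he.ge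
    have e4 : (y : X ⧸ N) ∈ f.range := by
      rw [e3, Subgroup.mem_centralizer_singleton_iff]
      have := (QuotientGroup.eq_one_iff _).2 hy
      simp only [QuotientGroup.mk_mul, QuotientGroup.mk_inv] at this
      rw [mul_inv_eq_one, mul_inv_eq_iff_eq_mul] at this
      exact this.symm
    obtain ⟨⟨c, hc⟩, h5⟩ := e4
    refine ⟨y⁻¹ * c, QuotientGroup.eq.1 (Eq.symm h5), ?_⟩
    rw [mul_inv_cancel_left]
    exact (Subgroup.mem_centralizer_singleton_iff.1 hc).symm
  have h1 : ∀ x : X, Nat.card (Subgroup.centralizer ({x} : Set X)) ≤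
      Nat.card (Subgroup.centralizer ({(x : X ⧸ N)} : Set (X ⧸ N))) *
        {n : N | (n : X) * x = x * n}.ncard := fun x => by
    obtain ⟨a, b, e, -, hb, ha, -⟩ := h0 x
    rw [e]; exact Nat.mul_le_mul ha hb
  have h1' : Nat.card (Subgroup.centralizer ({x} : Set X)) <
      Nat.card (Subgroup.centralizer ({(x : X ⧸ N)} : Set (X ⧸ N))) *
        {n : N | (n : X) * x = x * n}.ncard := by
    obtain ⟨a, b, e, hb0, hb, ha, hc⟩ := h0 x
    rw [e]
    exact Nat.mul_lt_mul_of_lt_of_le (lt_of_le_of_ne ha fun e => hne (hc e y hxy)) hb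
      (hb0.trans_le hb)
  -- for each coset, the sum of `|C_N(x)|` is at most `k(N)|N|`
  have h2 : ∀ q : X ⧸ N, ∑ x : {x : X // (x : X ⧸ N) = q}, {n : N | (n : X) * x.1 = x.1 * n}.ncard ≤
      Nat.card (ConjClasses N) * Nat.card N := by
    intro q
    rw [CL.sum_ncard_rel_comm (fun (x : {x : X // (x : X ⧸ N) = q}) (n : N) => (n : X) * x.1 = x.1 * n),
      ← hN]
    apply Finset.sum_le_sum
    intro n _
    set S := {a : {x : X // (x : X ⧸ N) = q} | (n : X) * a.1 = a.1 * n}
    rcases S.eq_empty_or_nonempty with h | ⟨a, ha⟩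
    · rw [h]; simp
    · rw [← Nat.card_coe_set_eq]
      have hm : ∀ b : S, a.1⁻¹ * b.1.1 ∈ N := fun b => QuotientGroup.eq.mp (a.2.trans b.1.2.symm)
      let g : S → Subgroup.centralizer ({n} : Set N) := fun b =>
        ⟨⟨a.1⁻¹ * b.1.1, hm b⟩, by
          rw [Subgroup.mem_centralizer_singleton_iff]
          apply Subtype.ext
          have hb : (n : X) * b.1.1 = b.1.1 * n := b.2
          have ha' : (n : X) * a.1 = a.1 * n := ha
          show a.1⁻¹ * b.1.1 * n = n * (a.1⁻¹ * b.1.1)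
          calc a.1⁻¹ * b.1.1 * n = a.1⁻¹ * (n * b.1.1) := by rw [hb]; group
            _ = a.1⁻¹ * (n * a.1) * a.1⁻¹ * b.1.1 := by group
            _ = n * (a.1⁻¹ * b.1.1) := by rw [ha']; group⟩
      apply Nat.card_le_card_of_injective g
      intro b c hbc
      apply Subtype.ext; apply Subtype.ext
      have := congrArg (fun z => (z.1.1 : X)) hbc
      exact mul_left_cancel this
  have h3 : Nat.card (ConjClasses X) * Nat.card X <
      (Nat.card (ConjClasses (X ⧸ N)) * Nat.card (X ⧸ N)) * (Nat.card (ConjClasses N) * Nat.card N) := by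
    rw [← hX, ← hQ, Finset.sum_mul]
    refine (Finset.sum_lt_sum (fun x _ => h1 x) ⟨x, Finset.mem_univ _, h1'⟩).trans_le ?_
    rw [← Finset.sum_fiberwise Finset.univ (fun x : X => (x : X ⧸ N))]
    apply Finset.sum_le_sum
    intro q _
    refine le_trans ?_ (Nat.mul_le_mul_left _ (h2 q))
    rw [Finset.mul_sum]
    rw [Finset.sum_subtype (p := fun x : X => (x : X ⧸ N) = q) _ (by simp)]
    apply Finset.sum_le_sum
    rintro ⟨x, rfl⟩ _
    exact le_rfl
  have e3 : Nat.card X = Nat.card (X ⧸ N) * Nat.card N :=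
    Subgroup.card_eq_card_quotient_mul_card_subgroup N
  have h4 := Nat.mul_le_mul_right (Nat.card X) h
  refine absurd (h4.trans_lt h3) (not_lt.2 (le_of_eq ?_))
  rw [e3]; ring

end CL.KGV.Gal
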