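import Cfsg.Agent.KGV.M19
import Cfsg.Agent.KGV.Pair
import Cfsg.Agent.KGV.Tr2
import Cfsg.Agent.KGV.A.AsmD

set_option autoImplicit false

namespace CL.KGV.M19

universe u

theorem mat (p : ℕ) [Fact p.Prime] : Tr.Mat p := mat_of p fun K => Pair.ex p K

theorem th (p : ℕ) [Fact p.Prime] : CL.KGA.Th.{u} p := Tr.th (mat p)

theorem thetaSt (p : ℕ) [Fact p.Prime] : CL.KGA.ThetaSt.{u} p := fun V => Tr.theta (mat p) V

end CL.KGV.M19
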