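import Mathlib
import Cfsg.Agent.CHAR.Gallagher
import Cfsg.Agent.CHAR.Ext
import Cfsg.Agent.PLOC.PFrattini
import Cfsg.Agent.FUS.MetaAut
import Cfsg.Agent.S4201

/-! The group-theoretic half of the class number bound for blocks with a normal defect group. -/

set_option autoImplicit false

namespace CL.KGV.ND

open Subgroup Cfsg CL.Char

universe u

theorem k_congr {G H : Type*} [Group G] [Group H] (e : G ≃* H) :
    Nat.card (ConjClasses G) = Nat.card (ConjClasses H) := by
  refine Nat.card_congr (Quotient.congr e.toEquiv fun a b => ⟨fun h => e.toMonoidHom.map_isConj h,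
    fun h => ?_⟩)
  change IsConj a b
  have := e.symm.toMonoidHom.map_isConj h
  simpa using this

theorem k_quot {G W : Type*} [Group G] [Group W] (f : G →* W) (I K : Subgroup G) [K.Normal]
    (hK : f.ker = K) :
    Nat.card (ConjClasses (I ⧸ K.subgroupOf I)) = Nat.card (ConjClasses (I.map f)) := by
  have e1 : K.subgroupOf I = (f.comp I.subtype).ker := by
    rw [← MonoidHom.comap_ker, hK]; rfl
  have e2 : (f.comp I.subtype).range = I.map f := by
    rw [MonoidHom.range_comp, range_subtype]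
  exact k_congr ((QuotientGroup.quotientMulEquivOfEq e1).trans
    ((QuotientGroup.quotientKerEquivRange _).trans (MulEquiv.subgroupCongr e2)))

theorem over_ge {Y : Type*} [Group Y] [Finite Y] (N : Subgroup Y) [hN : N.Normal] [Fintype N]
    (hc : N.index.Coprime (Nat.card N)) {θ : N → ℂ} (hθ : IsIrrCharacter N θ) :
    Nat.card (ConjClasses (inertia N θ ⧸ N.subgroupOf (inertia N θ))) ≤
      Nat.card {χ : IrrCharacter Y // classInner (fun n : N => (χ : Y → ℂ) n) θ ≠ 0} := by
  classical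
  have := Fintype.ofFinite Y
  set I := inertia N θ with hI
  have hNI : N ≤ I := le_inertia hθ.isClassFunction
  have := Fintype.ofFinite (N.subgroupOf I)
  have hcard : Nat.card (N.subgroupOf I) = Nat.card N :=
    Nat.card_congr (subgroupOfEquivOfLe hNI).toEquiv
  obtain ⟨χ, hχ, hext, -⟩ := exists_ext_of_coprime_card (N.subgroupOf I) (hθ.subOf hNI)
    (inertia_eq_top_iff.1 (inertia_subOf_eq_top hNI le_rfl))
    (by rw [hcard]; exact hc.coprime_dvd_left (relIndex_dvd_index_of_le hNI))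
  have hext' : (fun n : N.subgroupOf I => χ n) = subOf N I θ := funext hext
  have hχN : IsIrrCharacter (N.subgroupOf I) (fun n : N.subgroupOf I => χ n) :=
    hext' ▸ hθ.subOf hNI
  have hb := clifford_bijOn hNI hθ (le_refl I)
  have hm : ∀ β : {β : IrrCharacter I // ∀ n ∈ N.subgroupOf I, (β : I → ℂ) n = (β : I → ℂ) 1},
      IsIrrCharacter I ((β.1 : I → ℂ) * χ) ∧
        classInner (fun n : N => ((β.1 : I → ℂ) * χ) ⟨n, hNI n.2⟩) θ ≠ 0 := by
    intro β
    refine ⟨gallagher_irr hχ.isCharacter hχN β.1.2 β.2, ?_⟩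
    rw [← classInner_res_subOf hNI, ← hext', inner_res_mul_of_ker hχN β.2]
    exact IsIrrCharacter.one_ne_zero β.1.2
  rw [← card_irr_ker]
  refine Nat.card_le_card_of_injective
    (fun β => ⟨⟨indFun I ((β.1 : I → ℂ) * χ), (hb.mapsTo (hm β)).1⟩, (hb.mapsTo (hm β)).2⟩) ?_
  intro β γ e
  have e1 : indFun I ((β.1 : I → ℂ) * χ) = indFun I ((γ.1 : I → ℂ) * χ) :=
    congrArg (fun x => (x.1 : Y → ℂ)) e
  exact Subtype.ext (Subtype.ext (gallagher_inj hχ.isCharacter hχN β.1.2 γ.1.2 β.2 γ.2
    (hb.injOn (hm β) (hm γ) e1)))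

theorem sum_le {Y : Type*} [Group Y] [Finite Y] (N K : Subgroup Y) [hN : N.Normal] [hK : K.Normal]
    (hc : N.index.Coprime (Nat.card N)) (hKN : K ≤ N) {ι : Type*} [Fintype ι] (θ : ι → N → ℂ)
    (hθ : ∀ i, IsIrrCharacter N (θ i)) (hn : ∀ i j y, conjN N y (θ i) = θ j → i = j)
    (hk : ∀ i (n : N), (n : Y) ∈ K → θ i n = θ i 1) :
    ∑ i, Nat.card (ConjClasses (inertia N (θ i) ⧸ N.subgroupOf (inertia N (θ i)))) ≤
      Nat.card (ConjClasses (Y ⧸ K)) := by
  classical
  have := Fintype.ofFinite N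
  refine (Finset.sum_le_sum fun i _ => over_ge N hc (hθ i)).trans ?_
  rw [← card_irr_ker, ← Nat.card_sigma]
  refine Nat.card_le_card_of_injective (fun x => ⟨x.2.1, fun k hkK => ?_⟩) ?_
  · have h := clifford x.2.1.2 (hθ x.1) x.2.2
    have h1 := congrFun h ⟨k, hKN hkK⟩
    have h2 := congrFun h 1
    simp only [OneMemClass.coe_one, Pi.smul_apply, Finset.sum_apply] at h1 h2
    rw [h1, h2]
    congr 1
    refine Finset.sum_congr rfl fun φ hφ => ?_
    obtain ⟨g, rfl⟩ := mem_conjugates.1 hφ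
    rw [conjN_apply_one, conjN_apply]
    exact hk _ _ (hK.conj_mem k hkK g)
  · rintro ⟨i, χ, h⟩ ⟨j, χ', h'⟩ e
    obtain rfl : χ = χ' := congrArg Subtype.val e
    obtain ⟨g, hg⟩ := mem_conjugates.1 (mem_conjugates_of_under χ.2 (hθ i) (hθ j) h h')
    obtain rfl := hn i j g hg
    rfl

theorem k_le {Y : Type u} [Group Y] [Finite Y] (p : ℕ) [hp : Fact p.Prime]
    (kgv : ∀ (X : Type u) [Group X] [Finite X] (V : Subgroup X) [V.Normal], (∀ v ∈ V, v ^ p = 1) →
      ¬ p ∣ V.index → centralizer (V : Set X) = V → Nat.card (ConjClasses X) ≤ Nat.card V)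
    (N K : Subgroup Y) [hN : N.Normal] [hK : K.Normal] (hNp : IsPGroup p N) (hi : ¬ p ∣ N.index)
    (hC : centralizer (N : Set Y) ≤ N) (hKF : K ≤ (frattini N).map N.subtype) :
    Nat.card (ConjClasses (Y ⧸ K)) ≤ K.relIndex N := by
  set F := (frattini N).map N.subtype with hF
  have hFN : F ≤ N := map_subtype_le _
  have hFn : F.Normal := ConjAct.normal_of_characteristic_of_normal
  obtain ⟨k, hk⟩ := hNp.exists_card_eq
  have h1 := kgv (Y ⧸ F) (N.map (QuotientGroup.mk' F)) ?_ ?_ ?_
  · let f : Y ⧸ K →* Y ⧸ F := QuotientGroup.map K F (MonoidHom.id Y) hKF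
    have hf : Function.Surjective f := fun y => by
      obtain ⟨y, rfl⟩ := QuotientGroup.mk'_surjective F y
      exact ⟨y, rfl⟩
    have h2 := Cfsg.Agent.S4201.result f.ker
    rw [k_congr (QuotientGroup.quotientKerEquivOfSurjective f hf)] at h2
    have h3 : Nat.card (ConjClasses f.ker) ≤ Nat.card f.ker :=
      Nat.card_le_card_of_surjective _ ConjClasses.mk_surjective
    have h4 : f.ker = F.map (QuotientGroup.mk' K) := by
      exact (QuotientGroup.ker_map K F (MonoidHom.id Y) hKF).trans (by rw [comap_id])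
    have h5 : ∀ (A B : Subgroup Y) [A.Normal],
        Nat.card (B.map (QuotientGroup.mk' A)) = A.relIndex B := fun A B _ => by
      have := relIndex_comap (⊥ : Subgroup (Y ⧸ A)) (QuotientGroup.mk' A) B
      rw [MonoidHom.comap_bot, QuotientGroup.ker_mk', relIndex_bot_left] at this
      exact this.symm
    rw [h4, h5] at h3
    rw [h5] at h1
    rw [h4] at h2
    rw [← relIndex_mul_relIndex K F N hKF hFN]
    exact h2.trans (Nat.mul_le_mul h3 h1)
  · rintro _ ⟨n, hn, rfl⟩
    rw [← map_pow]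
    exact (QuotientGroup.eq_one_iff _).2 (CL.PG.pow_mem_frattini_map hNp hn)
  · rwa [index_map_eq _ (QuotientGroup.mk'_surjective F) (by rwa [QuotientGroup.ker_mk'])]
  · refine le_antisymm (fun y hy => ?_) ?_
    · obtain ⟨y, rfl⟩ := QuotientGroup.mk'_surjective F y
      refine mem_map_of_mem _ ?_
      have hz : (QuotientGroup.mk' F) (y ^ Nat.card N) ∈
          centralizer (N.map (QuotientGroup.mk' F) : Set (Y ⧸ F)) := by
        rw [map_pow]; exact pow_mem hy _
      have ho : (y ^ Nat.card N) ^ N.index = 1 := by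
        rw [← pow_mul, N.card_mul_index, pow_card_eq_one']
      have hcop : N.index.Coprime p := ((Nat.Prime.coprime_iff_not_dvd hp.out).2 hi).symm
      have ha : (MulAut.conjNormal (y ^ Nat.card N) : MulAut N) = 1 := by
        refine CL.MC.eq_one_of_frattini hNp (hcop.coprime_dvd_left (orderOf_dvd_of_pow_eq_one ?_))
          fun x => ?_
        · rw [← map_pow, ho, map_one]
        · have h := hz _ (mem_map_of_mem _ x.2)
          rw [← map_mul, ← map_mul] at h
          have h' := QuotientGroup.eq.1 h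
          have h'' := hFn.conj_mem _ h' (y ^ Nat.card N)
          obtain ⟨w, hw, e⟩ := h''
          have e' : x⁻¹ * (MulAut.conjNormal (y ^ Nat.card N) : MulAut N) x = w := by
            apply Subtype.ext
            rw [show (w : Y) = _ from e, coe_mul, coe_inv, MulAut.conjNormal_apply]
            group
          rw [e']
          exact hw
      have hz' : y ^ Nat.card N ∈ N := hC fun x hx => by
        have := congrArg (fun a : MulAut N => ((a ⟨x, hx⟩ : N) : Y)) ha
        simp only [MulAut.conjNormal_apply, MulAut.one_apply] at this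
        rw [mul_inv_eq_iff_eq_mul] at this
        exact this.symm
      have hq1 : (y : Y ⧸ N) ^ Nat.card N = 1 := by
        rw [← QuotientGroup.mk_pow, QuotientGroup.eq_one_iff]; exact hz'
      have hq2 : (y : Y ⧸ N) ^ N.index = 1 := by
        rw [index_eq_card]; exact pow_card_eq_one'
      have hq := pow_gcd_eq_one.2 ⟨hq1, hq2⟩
      rw [hk, (hcop.symm.pow_left k).gcd_eq_one, pow_one] at hq
      exact (QuotientGroup.eq_one_iff _).1 hq
    · rintro _ ⟨a, ha, rfl⟩ _ ⟨b, hb, rfl⟩
      rw [← map_mul, ← map_mul]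
      refine QuotientGroup.eq.2 ?_
      have := CL.PG.commutator_le_frattini_map hNp
        (commutator_mem_commutator (inv_mem ha) (inv_mem hb))
      rw [commutatorElement_def, inv_inv, inv_inv] at this
      rwa [mul_inv_rev, ← mul_assoc]

theorem exists_Y {T : Type u} [Group T] [Finite T] (p : ℕ) [hp : Fact p.Prime] (D : Subgroup T)
    [hDn : D.Normal] (hD : IsPGroup p D) (hT : ¬ p ∣ (D ⊔ centralizer (D : Set T)).index) :
    ∃ (Y : Type u) (_ : Group Y) (_ : Finite Y) (i : D →* Y)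
      (g : Y →* T ⧸ (D ⊔ centralizer (D : Set T))), Function.Injective i ∧ Function.Surjective g ∧
      g.ker = i.range ∧ ∀ y : Y, ∃ t : T, g y = t ∧
        ∀ n : D, y * i n * y⁻¹ = i ⟨t * n * t⁻¹, hDn.conj_mem n n.2 t⟩ := by
  set C := centralizer (D : Set T) with hC
  let J := D.map (QuotientGroup.mk' C)
  have hJp : IsPGroup p J := hD.map _
  have hJi : J.index = (D ⊔ C).index := by
    rw [index_map, QuotientGroup.ker_mk', MonoidHom.range_eq_top.2 (QuotientGroup.mk'_surjective C),
      index_top, mul_one]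
  obtain ⟨k, hk⟩ := hJp.exists_card_eq
  obtain ⟨E, hE⟩ := exists_right_complement'_of_coprime (N := J) (by
    rw [hk, hJi]; exact ((Nat.Prime.coprime_iff_not_dvd hp.out).2 hT).pow_left k)
  let ψ : T ⧸ C →* MulAut D := QuotientGroup.lift C MulAut.conjNormal fun c hc => by
    ext n
    simp only [MulAut.conjNormal_apply, MulAut.one_apply]
    rw [mul_inv_eq_iff_eq_mul]
    exact (hc n n.2).symm
  let q : T ⧸ C →* T ⧸ (D ⊔ C) := QuotientGroup.map C (D ⊔ C) (MonoidHom.id T) le_sup_right
  have hq : q.ker = J := by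
    refine (QuotientGroup.ker_map C (D ⊔ C) (MonoidHom.id T) le_sup_right).trans ?_
    rw [comap_id, Subgroup.map_sup, QuotientGroup.map_mk'_self, sup_bot_eq]
  have : Finite (D ⋊[ψ.comp E.subtype] E) :=
    Finite.of_equiv _ (SemidirectProduct.equivProd).symm
  refine ⟨D ⋊[ψ.comp E.subtype] E, inferInstance, inferInstance, SemidirectProduct.inl,
    (q.comp E.subtype).comp SemidirectProduct.rightHom, SemidirectProduct.inl_injective, ?_, ?_, ?_⟩
  · intro x
    obtain ⟨t, rfl⟩ := QuotientGroup.mk'_surjective _ x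
    obtain ⟨⟨j, e⟩, hje⟩ := hE.2 (t : T ⧸ C)
    refine ⟨SemidirectProduct.inr e, ?_⟩
    have h1 : q j = 1 := by rw [← MonoidHom.mem_ker, hq]; exact j.2
    have h2 : q (t : T ⧸ C) = q j * q e := by rw [← map_mul]; exact congrArg q hje.symm
    rw [h1, one_mul] at h2
    exact h2.symm
  · rw [SemidirectProduct.range_inl_eq_ker_rightHom]
    ext y
    simp only [MonoidHom.mem_ker, MonoidHom.comp_apply]
    refine ⟨fun h => ?_, fun h => by rw [h, map_one, map_one]⟩
    rw [← MonoidHom.mem_ker, hq] at h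
    exact Subtype.ext (disjoint_def.1 hE.disjoint h (SemidirectProduct.rightHom y).2)
  · intro y
    obtain ⟨s, hs⟩ := QuotientGroup.mk'_surjective C (y.right : T ⧸ C)
    refine ⟨y.left * s, ?_, fun n => ?_⟩
    · have h1 : ((y.left : T) : T ⧸ (D ⊔ C)) = 1 :=
        (QuotientGroup.eq_one_iff _).2 (mem_sup_left y.left.2)
      rw [QuotientGroup.mk_mul, h1, one_mul]
      change q (y.right : T ⧸ C) = _
      rw [← hs]
      rfl
    · have h1 : (ψ.comp E.subtype) y.right = MulAut.conjNormal s := by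
        change ψ (y.right : T ⧸ C) = _
        rw [← hs]
        rfl
      conv_lhs => rw [← SemidirectProduct.inl_left_mul_inr_right y]
      rw [mul_inv_rev, ← map_inv, ← map_inv, mul_assoc (SemidirectProduct.inl y.left), mul_assoc,
        ← mul_assoc (SemidirectProduct.inr y.right * _), ← SemidirectProduct.inl_aut, h1,
        ← map_mul, ← map_mul]
      congr 1
      apply Subtype.ext
      simp [mul_assoc]

theorem grp {T : Type u} [Group T] [Finite T] (p : ℕ) [hp : Fact p.Prime]
    (kgv : ∀ (X : Type u) [Group X] [Finite X] (V : Subgroup X) [V.Normal], (∀ v ∈ V, v ^ p = 1) →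
      ¬ p ∣ V.index → centralizer (V : Set X) = V → Nat.card (ConjClasses X) ≤ Nat.card V)
    (D : Subgroup T) [hDn : D.Normal] (hD : IsPGroup p D)
    (hT : ¬ p ∣ (D ⊔ centralizer (D : Set T)).index) {ι : Type*} [Fintype ι]
    (ζ : ι → IrrCharacter D)
    (hζ : ∀ i j (t : T), (∀ d : D, (ζ j).1 d = (ζ i).1 ⟨t * d * t⁻¹, hDn.conj_mem d d.2 t⟩) →
      i = j) :
    ∑ i, Nat.card (ConjClasses (inertia D (ζ i).1 ⧸
      (D ⊔ centralizer (D : Set T)).subgroupOf (inertia D (ζ i).1))) ≤ Nat.card D ∧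
    ((∀ i, (ζ i).1 1 = 1) → ∑ i, Nat.card (ConjClasses (inertia D (ζ i).1 ⧸
      (D ⊔ centralizer (D : Set T)).subgroupOf (inertia D (ζ i).1))) ≤ (commutator D).index) := by
  obtain ⟨Y, _, _, f, g, hf, hg, hk, hy⟩ := exists_Y p D hD hT
  let e : D ≃* g.ker := (MonoidHom.ofInjective hf).trans (MulEquiv.subgroupCongr hk.symm)
  have he : ∀ d, ((e d : g.ker) : Y) = f d := fun _ => rfl
  let θ : ι → g.ker → ℂ := fun i n => (ζ i).1 (e.symm n)
  have hθ : ∀ i, IsIrrCharacter g.ker (θ i) := fun i => (ζ i).2.comp_mulEquiv e.symm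
  have hNp : IsPGroup p g.ker := hD.of_equiv e
  have hi : ¬ p ∣ g.ker.index := by
    rwa [index_ker, MonoidHom.range_eq_top.2 hg, card_top, ← index_eq_card]
  obtain ⟨k, hk'⟩ := hNp.exists_card_eq
  have hc : g.ker.index.Coprime (Nat.card g.ker) := by
    rw [hk']; exact (((Nat.Prime.coprime_iff_not_dvd hp.out).2 hi).pow_left k).symm
  have hcj : ∀ (y : Y) (t : T),
      (∀ n : D, y * f n * y⁻¹ = f ⟨t * n * t⁻¹, hDn.conj_mem n n.2 t⟩) → ∀ i (d : D),
        conjN g.ker y (θ i) (e d) = (ζ i).1 ⟨t * d * t⁻¹, hDn.conj_mem d d.2 t⟩ := by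
    intro y t h i d
    rw [conjN_apply]
    refine congrArg (ζ i).1 ?_
    rw [MulEquiv.symm_apply_eq]
    exact Subtype.ext (h d)
  have hθe : ∀ i d, θ i (e d) = (ζ i).1 d := fun i d => by simp [θ]
  have hC : centralizer (g.ker : Set Y) ≤ g.ker := fun y h => by
    obtain ⟨t, h1, h2⟩ := hy y
    rw [MonoidHom.mem_ker, h1, QuotientGroup.eq_one_iff]
    refine mem_sup_right fun n hn => ?_
    have h3 := h2 ⟨n, hn⟩
    rw [← h _ (e ⟨n, hn⟩).2 |>.trans rfl |> fun x => (show y * f ⟨n, hn⟩ = f ⟨n, hn⟩ * y from x.symm).symm,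
      mul_inv_cancel_right] at h3
    have h4 : n = t * n * t⁻¹ := congrArg Subtype.val (hf h3)
    rw [eq_mul_inv_iff_mul_eq] at h4
    exact h4
  have hn : ∀ i j y, conjN g.ker y (θ i) = θ j → i = j := fun i j y h => by
    obtain ⟨t, -, h2⟩ := hy y
    exact hζ i j t fun d => by rw [← hcj y t h2, h, hθe]
  have hHI : ∀ i, D ⊔ centralizer (D : Set T) ≤ inertia D (ζ i).1 := fun i =>
    sup_le (le_inertia (ζ i).2.isClassFunction) fun c hc n => by
      refine congrArg (ζ i).1 (Subtype.ext ?_)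
      change c * n * c⁻¹ = n
      rw [mul_inv_eq_iff_eq_mul]
      exact (hc n n.2).symm
  have hI : ∀ i (y : Y) (t : T), g y = t → (y ∈ inertia g.ker (θ i) ↔ t ∈ inertia D (ζ i).1) := by
    intro i y t h
    obtain ⟨s, h1, h2⟩ := hy y
    have h3 : s⁻¹ * t ∈ inertia D (ζ i).1 := hHI i (QuotientGroup.eq.1 (h1.symm.trans h))
    have h4 : y ∈ inertia g.ker (θ i) ↔ s ∈ inertia D (ζ i).1 := by
      rw [mem_inertia_iff]
      refine ⟨fun h d => by rw [← hcj y s h2, h, hθe], fun h => funext fun n => ?_⟩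
      obtain ⟨d, rfl⟩ := e.surjective n
      rw [hcj y s h2, h d, hθe]
    rw [h4]
    exact ⟨fun h => by simpa using mul_mem h h3, fun h => by simpa using mul_mem h (inv_mem h3)⟩
  have hq : ∀ i, Nat.card (ConjClasses (inertia D (ζ i).1 ⧸
      (D ⊔ centralizer (D : Set T)).subgroupOf (inertia D (ζ i).1))) =
      Nat.card (ConjClasses (inertia g.ker (θ i) ⧸ g.ker.subgroupOf (inertia g.ker (θ i)))) := by
    intro i
    rw [k_quot _ _ _ (QuotientGroup.ker_mk' _), k_quot g _ _ rfl]
    refine k_congr (MulEquiv.subgroupCongr (le_antisymm ?_ ?_))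
    · rintro _ ⟨t, ht, rfl⟩
      obtain ⟨y, h⟩ := hg t
      exact ⟨y, (hI i y t h).2 ht, h⟩
    · rintro _ ⟨y, h, rfl⟩
      obtain ⟨t, h1, -⟩ := hy y
      exact ⟨t, (hI i y t h1).1 h, h1.symm⟩
  simp only [hq]
  refine ⟨?_, fun h1 => ?_⟩
  · refine (sum_le g.ker ⊥ hc bot_le θ hθ hn fun i n h => ?_).trans
      ((k_le p kgv g.ker ⊥ hNp hi hC bot_le).trans_eq ?_)
    · rw [show n = 1 from Subtype.ext h]
    · rw [relIndex_bot_left]; exact (Nat.card_congr e.toEquiv).symm
  · refine (sum_le g.ker ⁅g.ker, g.ker⁆ hc (commutator_le_left _ _) θ hθ hn fun i n h => ?_).trans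
      ((k_le p kgv g.ker ⁅g.ker, g.ker⁆ hNp hi hC
        (CL.PG.commutator_le_frattini_map hNp)).trans_eq ?_)
    · have h2 : θ i 1 = 1 := by rw [← map_one e, hθe, h1]
      rw [h2]
      refine (hθ i).isCharacter.eq_one_of_mem_commutator h2 ?_
      rw [← map_subtype_commutator] at h
      obtain ⟨w, hw, e'⟩ := h
      rwa [← show w = n from Subtype.ext e']
    · rw [← map_subtype_commutator, relIndex, subgroupOf, comap_map_eq_self_of_injective
        (subtype_injective _), ← index_map_equiv _ e.symm, _root_.map_commutator_eq,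
        MonoidHom.range_eq_top.2 e.symm.surjective]
      rfl

end CL.KGV.ND
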